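/-
Characteristic `p` is inherited by the centralisers of larger `p`-subgroups.
-/
import Cfsg.Agent.Lib.FFModules.Kieler
import Cfsg.Agent.Lib.Balance.Local
import Cfsg.Agent.Lib.Cores.GenFitting
import Cfsg.Agent.Lib.CoprimeAction.Basic
import Cfsg.Agent.Lib.ConjFunctor.Basic

set_option autoImplicit false

namespace CfsgLib.TwoFusion

open Subgroup CfsgLib.FFModules

variable {G : Type*} [Group G] [Finite G] {p : ℕ} [hp : Fact p.Prime]

theorem charPOf_iff (H : Subgroup G) :
    H ⊓ centralizer (Cfsg.pCoreOf p H : Set G) ≤ Cfsg.pCoreOf p H ↔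
      centralizer (Cfsg.pCore p H : Set H) ≤ Cfsg.pCore p H := by
  constructor
  · intro h x hx
    have h1 : (x : G) ∈ Cfsg.pCoreOf p H := h ⟨x.2, by
      rintro _ ⟨y, hy, rfl⟩
      exact congrArg Subtype.val (hx y hy)⟩
    obtain ⟨y, hy, he⟩ := h1
    rwa [← Subtype.ext he]
  · rintro h x ⟨hxH, hx⟩
    exact ⟨⟨x, hxH⟩, h fun y hy => Subtype.ext (hx y ⟨y, hy, rfl⟩), rfl⟩

theorem centralizer_pCore_le_iff {H : Type*} [Group H] [Finite H] :
    centralizer (Cfsg.pCore p H : Set H) ≤ Cfsg.pCore p H ↔
      IsPGroup p (Cfsg.generalizedFittingSubgroup H) := by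
  constructor
  · intro h
    have hE : Cfsg.layer H = ⊥ := CfsgLib.Cores.layer_eq_bot_iff.2 fun K hK => by
      refine CfsgLib.Balance.not_isPGroup_of_isComponent (p := p) hK
        ((CfsgLib.Cores.isPGroup_pCore p H).to_le (le_trans ?_ h))
      haveI : Group.IsNilpotent ↥(Cfsg.pCore p H) := (CfsgLib.Cores.isPGroup_pCore p H).isNilpotent
      exact (CfsgLib.Cores.le_layer hK).trans
        (CfsgLib.Cores.layer_le_centralizer_of_isSolvable
          (inferInstance : (Cfsg.pCore p H).Normal).isSubnormal)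
    rw [CfsgLib.Balance.generalizedFittingSubgroup_eq_pCore
      (CfsgLib.Balance.pPrimeCore_eq_bot_of_centralizer_pCore_le h) hE]
    exact CfsgLib.Cores.isPGroup_pCore p H
  · intro h
    refine CfsgLib.Balance.centralizer_pCore_le_of_generalizedFitting_eq ?_
    exact le_antisymm (CfsgLib.Cores.le_pCore h)
      (CfsgLib.Cores.pCore_le_generalizedFittingSubgroup p)

/-- One normal step. -/
theorem charP_centralizer_step {U V : Subgroup G} (hU : IsPGroup p U) (hVU : V ≤ U)
    (hn : U ≤ normalizer (V : Set G))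
    (h : centralizer (V : Set G) ⊓ centralizer (Cfsg.pCoreOf p (centralizer (V : Set G)) : Set G) ≤
      Cfsg.pCoreOf p (centralizer (V : Set G))) :
    centralizer (U : Set G) ⊓ centralizer (Cfsg.pCoreOf p (centralizer (U : Set G)) : Set G) ≤
      Cfsg.pCoreOf p (centralizer (U : Set G)) := by
  set H := centralizer (V : Set G)
  set L := centralizer (U : Set G)
  set R := Cfsg.pCoreOf p H
  have hLH : L ≤ H := centralizer_le hVU
  have hUR : U ≤ normalizer (R : Set G) :=
    (hn.trans (normalizer_le_normalizer_centralizer V)).trans (normalizer_le_normalizer_pCoreOf H)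
  have hLR : L ≤ normalizer (R : Set G) := hLH.trans (le_normalizer_pCoreOf H)
  refine le_pCoreOf inf_le_left (le_normalizer_inf_of le_normalizer
    ((le_normalizer_pCoreOf L).trans (normalizer_le_normalizer_centralizer _))) ?_
  refine isPGroup_of_coprime_eq_one _ fun q hq hqp => ?_
  have hCU : R ⊓ centralizer (U : Set G) ≤ Cfsg.pCoreOf p L :=
    le_pCoreOf inf_le_right (le_normalizer_inf_of hLR le_normalizer)
      ((isPGroup_pCoreOf H).to_le inf_le_left)
  have hQR : zpowers q ≤ centralizer (R : Set G) := by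
    refine CfsgLib.CoprimeAction.pxq hU (by rwa [Nat.card_zpowers]) (isPGroup_pCoreOf H) ?_ hUR
      (zpowers_le.2 (hLR hq.1)) ?_
    · rw [le_centralizer_iff, zpowers_le]
      exact hq.1
    · refine hCU.trans ?_
      rw [le_centralizer_iff, zpowers_le]
      exact hq.2
  exact eq_one_of_coprime_of_mem (isPGroup_pCoreOf H)
    (h ⟨hLH hq.1, hQR (mem_zpowers q)⟩) hqp

theorem charP_centralizer_of_le {U : Subgroup G} (hU : IsPGroup p U) (V : Subgroup G) (hVU : V ≤ U)
    (h : centralizer (V : Set G) ⊓ centralizer (Cfsg.pCoreOf p (centralizer (V : Set G)) : Set G) ≤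
      Cfsg.pCoreOf p (centralizer (V : Set G))) :
    centralizer (U : Set G) ⊓ centralizer (Cfsg.pCoreOf p (centralizer (U : Set G)) : Set G) ≤
      Cfsg.pCoreOf p (centralizer (U : Set G)) := by
  induction V using WellFoundedGT.induction with
  | _ V ih =>
    rcases eq_or_lt_of_le hVU with rfl | hlt
    · exact h
    · refine ih _ (CfsgLib.ConjFunctor.lt_inf_normalizer hU hlt) inf_le_left ?_
      exact charP_centralizer_step (hU.to_le inf_le_left)
        (le_inf hVU Subgroup.le_normalizer) inf_le_right h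

end CfsgLib.TwoFusion
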