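/-
Sylow subgroups normalised by an isolated involution. The Z* theorem enters as a hypothesis.
-/
import Cfsg.Agent.Lib.TwoFusion.IsolatedZStar

set_option autoImplicit false

namespace CfsgLib.TwoFusion

open Cfsg

universe u

variable {G : Type u} [Group G] [Finite G] {z : G}

/-- For an involution normalising a subgroup `P` of odd order, the index of its fixed points is
the number of inverted elements. -/
theorem relIndex_eq_card_inverted (hz : z * z = 1) (P : Subgroup G) (hP : Odd (Nat.card P))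
    (hzP : z ∈ Subgroup.normalizer (P : Set G)) :
    (P ⊓ Subgroup.centralizer ({z} : Set G)).relIndex P =
      Nat.card {x : G // x ∈ P ∧ z * x * z⁻¹ = x⁻¹} := by
  set C := (P ⊓ Subgroup.centralizer ({z} : Set G)).subgroupOf P
  have hzi : z⁻¹ = z := inv_eq_of_mul_eq_one_right hz
  let f : P → {x : G // x ∈ P ∧ z * x * z⁻¹ = x⁻¹} := fun a =>
    ⟨(a : G) * (z * (a : G)⁻¹ * z⁻¹),
      P.mul_mem a.2 ((Subgroup.mem_normalizer_iff.1 hzP _).1 (P.inv_mem a.2)), by
      rw [mul_inv_rev, mul_inv_rev, mul_inv_rev, inv_inv, inv_inv, hzi,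
        show z * ((a : G) * (z * (a : G)⁻¹ * z)) * z = z * (a : G) * z * (a : G)⁻¹ * (z * z) by group,
        hz, mul_one]
      group⟩
  have hf : ∀ a b : P, f a = f b ↔ QuotientGroup.leftRel C a b := fun a b => by
    have hmem : QuotientGroup.leftRel C a b ↔ Commute ((a : G)⁻¹ * (b : G)) z := by
      rw [QuotientGroup.leftRel_apply, Subgroup.mem_subgroupOf, Subgroup.mem_inf,
        Subgroup.mem_centralizer_singleton_iff]
      exact ⟨fun h => h.2, fun h => ⟨(a⁻¹ * b).2, h⟩⟩
    rw [hmem, Subtype.ext_iff, Commute, SemiconjBy]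
    constructor
    · intro h
      have h' : (a : G) * (z * (a : G)⁻¹) = (b : G) * (z * (b : G)⁻¹) := by
        simpa [f, mul_assoc] using congrArg (· * z) h
      calc (a : G)⁻¹ * (b : G) * z = (a : G)⁻¹ * ((b : G) * (z * (b : G)⁻¹)) * (b : G) := by group
        _ = (a : G)⁻¹ * ((a : G) * (z * (a : G)⁻¹)) * (b : G) := by rw [h']
        _ = z * ((a : G)⁻¹ * (b : G)) := by group
    · intro h
      show (a : G) * (z * (a : G)⁻¹ * z⁻¹) = (b : G) * (z * (b : G)⁻¹ * z⁻¹)
      calc (a : G) * (z * (a : G)⁻¹ * z⁻¹)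
          = (a : G) * (z * ((a : G)⁻¹ * (b : G))) * ((b : G)⁻¹ * z⁻¹) := by group
        _ = (a : G) * (((a : G)⁻¹ * (b : G)) * z) * ((b : G)⁻¹ * z⁻¹) := by rw [h]
        _ = (b : G) * (z * (b : G)⁻¹ * z⁻¹) := by group
  refine Nat.card_congr (Equiv.ofBijective (Quotient.lift f fun a b h => (hf a b).2 h) ⟨?_, ?_⟩)
  · intro p q
    induction p using Quotient.inductionOn with
    | _ a => induction q using Quotient.inductionOn with
      | _ b => exact fun h => Quotient.sound ((hf a b).1 h)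
  · rintro ⟨x, hxP, hx⟩
    have hd : Odd (orderOf x) := hP.of_dvd_nat (Subgroup.orderOf_dvd_natCard P hxP)
    set r := oddRoot x with hr
    have hrP : r ∈ P := by rw [hr, oddRoot]; exact P.pow_mem hxP _
    refine ⟨Quotient.mk _ ⟨r, hrP⟩, Subtype.ext ?_⟩
    show r * (z * r⁻¹ * z⁻¹) = x
    rw [← inv_oddRoot, conj_oddRoot, ← conj_inv, hx, inv_inv, ← hr, ← pow_two, hr, oddRoot_sq hd]

/-- A conjugate of an invariant subgroup which is again invariant is conjugate by a centralising
element. -/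
theorem exists_conj_commute (hz : IsIsolatedInvolution z) {P : Subgroup G}
    (hzP : z ∈ Subgroup.normalizer (P : Set G)) {g : G}
    (hg : ∀ x ∈ P, z * (g * x * g⁻¹) * z⁻¹ ∈ P.map (MulAut.conj g).toMonoidHom) :
    ∃ c : G, Commute c z ∧ P.map (MulAut.conj c).toMonoidHom = P.map (MulAut.conj g).toMonoidHom := by
  set t := g⁻¹ * z * g with ht
  have htN : t ∈ Subgroup.normalizer (P : Set G) := by
    refine Subgroup.mem_normalizer_fintype fun x hx => ?_
    obtain ⟨y, hy, he⟩ := hg x hx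
    have e : t * x * t⁻¹ = y := by
      have he' : g * y * g⁻¹ = z * (g * x * g⁻¹) * z⁻¹ := he
      calc t * x * t⁻¹ = g⁻¹ * (z * (g * x * g⁻¹) * z⁻¹) * g := by rw [ht]; group
        _ = g⁻¹ * (g * y * g⁻¹) * g := by rw [he']
        _ = y := by group
    rw [e]; exact hy
  set k := t * z with hk
  have hkz : k * z = t := by rw [hk, mul_assoc, mul_self hz, mul_one]
  have hconj : IsConj z (k * z) := by
    rw [hkz]; exact isConj_iff.2 ⟨g⁻¹, by rw [ht, inv_inv]⟩
  obtain ⟨hkodd, hki⟩ := inverted_of_isConj hz hconj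
  set r := oddRoot k with hr
  have hrN : r ∈ Subgroup.normalizer (P : Set G) := by
    rw [hr, oddRoot]; exact pow_mem (mul_mem htN hzP) _
  have h1 : z * r * z⁻¹ = r⁻¹ := by rw [hr, conj_oddRoot, hki, inv_oddRoot]
  have h2 : r * z * r⁻¹ = k * z := by
    have h3 : z * r⁻¹ = r * z := by
      have := congrArg (fun w : G => w⁻¹) h1
      simp only [mul_inv_rev, inv_inv] at this
      calc z * r⁻¹ = z * r⁻¹ * z⁻¹ * z := by rw [inv_mul_cancel_right]
        _ = r * z := by rw [← mul_assoc] at this; rw [this]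
    rw [mul_assoc, h3, ← mul_assoc, hr, ← pow_two, oddRoot_sq hkodd]
  refine ⟨g * r, ?_, ?_⟩
  · have e : g * r * z * (g * r)⁻¹ = z := by
      calc g * r * z * (g * r)⁻¹ = g * (r * z * r⁻¹) * g⁻¹ := by group
        _ = g * t * g⁻¹ := by rw [h2, hkz]
        _ = z := by rw [ht]; group
    exact mul_inv_eq_iff_eq_mul.1 e
  · ext y
    constructor
    · rintro ⟨x, hx, rfl⟩
      refine ⟨r * x * r⁻¹, (Subgroup.mem_normalizer_iff.1 hrN x).1 hx, ?_⟩
      simp only [MulEquiv.coe_toMonoidHom, MulAut.conj_apply]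
      group
    · rintro ⟨x, hx, rfl⟩
      refine ⟨r⁻¹ * x * r, ?_, ?_⟩
      · refine (Subgroup.mem_normalizer_iff.1 hrN _).2 ?_
        rwa [show r * (r⁻¹ * x * r) * r⁻¹ = x by group]
      · simp only [MulEquiv.coe_toMonoidHom, MulAut.conj_apply]
        group

/-- The fixed points of an isolated involution on an invariant Sylow subgroup form a Sylow subgroup
of its centraliser. -/
theorem not_dvd_relIndex_centralizer (hZ : ZStarStatement.{u}) (hz : IsIsolatedInvolution z) {p : ℕ}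
    [Fact p.Prime] (P : Sylow p G) (hzP : z ∈ Subgroup.normalizer ((P : Subgroup G) : Set G)) :
    ¬ p ∣ ((P : Subgroup G) ⊓ Subgroup.centralizer ({z} : Set G)).relIndex
      (Subgroup.centralizer ({z} : Set G)) := by
  set C := Subgroup.centralizer ({z} : Set G) with hC
  set D := (P : Subgroup G) ⊓ C
  obtain ⟨R, hR⟩ := (P.2.to_le (inf_le_left : D ≤ P)).comap_of_injective C.subtype C.subtype_injective
    |>.exists_le_sylow
  set R₁ : Subgroup G := (R : Subgroup C).map C.subtype with hR₁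
  have hR₁C : R₁ ≤ C := Subgroup.map_subtype_le _
  have hzR₁ : z ∈ Subgroup.normalizer (R₁ : Set G) :=
    Subgroup.centralizer_le_normalizer _ fun x hx =>
      (Subgroup.mem_centralizer_singleton_iff.1 (hR₁C hx))
  obtain ⟨Q, ⟨hQp, hzQ, hRQ⟩, hmax⟩ := Set.Finite.exists_maximal
    (s := {Q : Subgroup G | IsPGroup p Q ∧ z ∈ Subgroup.normalizer (Q : Set G) ∧ R₁ ≤ Q})
    (Set.toFinite _) ⟨R₁, R.2.map _, hzR₁, le_rfl⟩
  obtain ⟨P', hP'⟩ := exists_sylow_of_maximal hZ hz Q hQp hzQ fun S h1 h2 h3 =>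
    le_antisymm (hmax ⟨h1, h2, hRQ.trans h3⟩ h3) h3
  obtain ⟨g, hg⟩ := MulAction.exists_smul_eq G P P'
  have hmap : (P : Subgroup G).map (MulAut.conj g).toMonoidHom = Q := by
    rw [← hP', ← hg]; rfl
  obtain ⟨c, hc, hcP⟩ := exists_conj_commute hz hzP (g := g) (fun x hx => by
    rw [hmap]
    exact (Subgroup.mem_normalizer_iff.1 hzQ _).1 (hmap ▸ ⟨x, hx, rfl⟩))
  rw [hmap] at hcP
  have hle : R₁.map (MulAut.conj c⁻¹).toMonoidHom ≤ D := by
    rintro _ ⟨x, hx, rfl⟩
    refine ⟨?_, ?_⟩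
    · obtain ⟨y, hy, hxy⟩ := hcP.symm ▸ hRQ hx
      rw [← hxy]
      simpa [mul_assoc] using hy
    · have hcx : Commute x z := Subgroup.mem_centralizer_singleton_iff.1 (hR₁C hx)
      have hci : Commute c⁻¹ z := hc.inv_left
      exact Subgroup.mem_centralizer_singleton_iff.2
        (((hci.mul_left hcx).mul_left (by rw [inv_inv]; exact hc) : Commute (c⁻¹ * x * c⁻¹⁻¹) z).eq)
  have hcard : Nat.card R ≤ Nat.card D := by
    refine le_trans (le_of_eq ?_) (Subgroup.card_le_of_le hle)
    rw [Subgroup.card_map_of_injective (MulEquiv.injective _), hR₁,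
      Subgroup.card_map_of_injective C.subtype_injective]
  have heq : D.subgroupOf C = (R : Subgroup C) := Subgroup.eq_of_le_of_card_ge hR
    (le_of_le_of_eq hcard
      (Nat.card_congr (Subgroup.subgroupOfEquivOfLe (inf_le_right : D ≤ C)).toEquiv).symm)
  show ¬ p ∣ (D.subgroupOf C).index
  rw [heq]
  exact R.not_dvd_index

end CfsgLib.TwoFusion
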