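/-
A self-centralizing central product of two quaternion groups of order eight in a 2-group contains a
self-centralizing elementary abelian subgroup of order eight.
-/
import Mathlib

set_option autoImplicit false

namespace CfsgLib.TwoFusion.QuatProd

/-- Two copies of the quaternion group of order eight. -/
abbrev M := QuaternionGroup 2 × QuaternionGroup 2

/-- The kernel element of the central product. -/
def ker2 : M := (.a 2, .a 2)

/-- A representative of the central involution. -/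
def zz : M := (.a 2, 1)

def gI : M := (.a 1, 1)
def gJ : M := (.xa 0, 1)
def gK : M := gI * gJ
def gP : M := (1, .a 1)
def gR : M := (1, .xa 0)

/-- Equality in the central product. -/
def Eqv (x y : M) : Prop := y = x ∨ y = ker2 * x

instance : DecidableRel Eqv := fun x y => by unfold Eqv; infer_instance

/-- Equality in the central product modulo its centre. -/
def Sim (x y : M) : Prop := Eqv x y ∨ Eqv (zz * x) y

instance : DecidableRel Sim := fun x y => by unfold Sim; infer_instance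

/-- What we need to check about a choice of generators. -/
structure Frame (I J P R : M) : Prop where
  img₁ : ∀ y : M, Eqv (y * y) (I * I) → Eqv (y * (I * P)) (I * P * y) →
    ¬ Eqv (y * (J * R)) (J * R * y) → Sim I y ∨ Sim P y
  img₂ : ∀ y : M, Eqv (y * y) (J * J) → Eqv (y * (J * R)) (J * R * y) →
    ¬ Eqv (y * (I * P)) (I * P * y) → Sim J y ∨ Sim R y
  nIv : ¬ Eqv (I * (J * R)) (J * R * I)
  nJu : ¬ Eqv (J * (I * P)) (I * P * J)
  cIu : Eqv (I * (I * P)) (I * P * I)
  cJv : Eqv (J * (J * R)) (J * R * J)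
  nIJ : ¬ Eqv (I * J) (J * I)
  cIR : Eqv (I * R) (R * I)
  cPJ : Eqv (P * J) (J * P)
  gen : ∀ x : M, ∃ a b c d : Fin 4, Eqv x (I ^ (a : ℕ) * J ^ (b : ℕ) * (P ^ (c : ℕ) * R ^ (d : ℕ)))
  inner : ∀ s₁ s₂ s₃ s₄ : Bool, ∃ q : M, Eqv (q * I * q⁻¹) (if s₁ then zz * I else I) ∧
    Eqv (q * J * q⁻¹) (if s₂ then zz * J else J) ∧
    Eqv (q * P * q⁻¹) (if s₃ then zz * P else P) ∧ Eqv (q * R * q⁻¹) (if s₄ then zz * R else R)
  quot : ∀ y : M, (Sim I y → Sim P (y⁻¹ * (I * P))) ∧ (Sim P y → Sim I (y⁻¹ * (I * P))) ∧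
    (Sim J y → Sim R (y⁻¹ * (J * R))) ∧ (Sim R y → Sim J (y⁻¹ * (J * R)))

theorem frame_one : Frame gI gJ gP gR := by
  refine ⟨?_, ?_, ?_, ?_, ?_, ?_, ?_, ?_, ?_, ?_, ?_, ?_⟩ <;> decide +kernel

theorem frame_two : Frame gJ gK gP gR := by
  refine ⟨?_, ?_, ?_, ?_, ?_, ?_, ?_, ?_, ?_, ?_, ?_, ?_⟩ <;> decide +kernel

theorem cycle_classes : ¬ Sim gI gJ ∧ ¬ Sim gI gK := by decide +kernel

/-- Representatives of an elementary abelian subgroup of order eight. -/
def reps (u v : M) : Finset M := {1, u, v, u * v, zz, zz * u, zz * v, zz * (u * v)}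

theorem reps_one : (reps (gI * gP) (gJ * gR)).card = 8 ∧
    (∀ x ∈ reps (gI * gP) (gJ * gR), ∀ y ∈ reps (gI * gP) (gJ * gR), Eqv x y → x = y) ∧
    (∀ x ∈ reps (gI * gP) (gJ * gR), Eqv (x * x) 1) ∧
    (∀ x : M, Eqv (x * (gI * gP)) (gI * gP * x) → Eqv (x * (gJ * gR)) (gJ * gR * x) →
      ∃ y ∈ reps (gI * gP) (gJ * gR), Eqv x y) ∧
    (∀ x ∈ reps (gI * gP) (gJ * gR), Eqv (x * (gI * gP)) (gI * gP * x) ∧
      Eqv (x * (gJ * gR)) (gJ * gR * x)) := by
  refine ⟨?_, ?_, ?_, ?_, ?_⟩ <;> decide +kernel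

theorem reps_two : (reps (gJ * gP) (gK * gR)).card = 8 ∧
    (∀ x ∈ reps (gJ * gP) (gK * gR), ∀ y ∈ reps (gJ * gP) (gK * gR), Eqv x y → x = y) ∧
    (∀ x ∈ reps (gJ * gP) (gK * gR), Eqv (x * x) 1) ∧
    (∀ x : M, Eqv (x * (gJ * gP)) (gJ * gP * x) → Eqv (x * (gK * gR)) (gK * gR * x) →
      ∃ y ∈ reps (gJ * gP) (gK * gR), Eqv x y) ∧
    (∀ x ∈ reps (gJ * gP) (gK * gR), Eqv (x * (gJ * gP)) (gJ * gP * x) ∧
      Eqv (x * (gK * gR)) (gK * gR * x)) := by
  refine ⟨?_, ?_, ?_, ?_, ?_⟩ <;> decide +kernel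

theorem central_zz : ∀ x : M, zz * x = x * zz ∧ ker2 * x = x * ker2 ∧ zz * zz = 1 ∧ ker2 * ker2 = 1 := by
  decide +kernel

theorem ker_cases : ∀ x : M, (∀ y : QuaternionGroup 2, x.1 * y = y * x.1) →
    (∀ y : QuaternionGroup 2, x.2 * y = y * x.2) →
    x = 1 ∨ x = (.a 2, 1) ∨ x = (1, .a 2) ∨ x = ker2 := by
  decide +kernel

theorem conj_sim : ∀ x q : M, Sim x (q * x * q⁻¹) := by decide +kernel

variable {S : Type*} [Group S] (f : M →* S)

/-- `f` identifies exactly the elements equal in the central product. -/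
def Faithful : Prop := ∀ x y : M, f x = f y ↔ Eqv x y

variable {f}

theorem zz_comm (x : M) : Commute (f zz) (f x) := (show Commute zz x from (central_zz x).1).map f

theorem sim_iff (hf : Faithful f) (x y : M) : Sim x y ↔ f y = f x ∨ f y = f zz * f x := by
  unfold Sim
  rw [← hf, ← hf, map_mul]
  exact or_congr eq_comm eq_comm

theorem sim_conj (hf : Faithful f) {c : S} (hc : Commute c (f zz)) {x y x' y' : M}
    (h : c * f x * c⁻¹ = f y) (hx : Sim x x') (hy : Sim y y') {w : M}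
    (hw : c * f x' * c⁻¹ = f w) : Sim y' w := by
  have hcz : c * f zz * c⁻¹ = f zz := by rw [hc.eq, mul_inv_cancel_right]
  have hzz : f zz * f zz = 1 := by rw [← map_mul, (central_zz 1).2.2.1, map_one]
  rw [sim_iff hf]
  rcases (sim_iff hf x x').1 hx with e | e <;> rcases (sim_iff hf y y').1 hy with e' | e'
  · left; rw [← hw, e, h, e']
  · right; rw [← hw, e, h, e', ← mul_assoc, hzz, one_mul]
  · right; rw [← hw, e, show c * (f zz * f x) * c⁻¹ = (c * f zz * c⁻¹) * (c * f x * c⁻¹) by group,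
      h, hcz, e']
  · left
    rw [← hw, e, show c * (f zz * f x) * c⁻¹ = (c * f zz * c⁻¹) * (c * f x * c⁻¹) by group,
      h, hcz, e']

/-- An element normalizing the central product and centralizing `I P`, `J R` exchanges the classes of
`I`, `P` and of `J`, `R`. -/
theorem swap_classes (hf : Faithful f) {I J P R : M} (hF : Frame I J P R) {c : S}
    (hn : ∀ x : M, ∃ y : M, c * f x * c⁻¹ = f y) (hz : Commute c (f zz))
    (hu : Commute c (f (I * P))) (hv : Commute c (f (J * R)))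
    (hC : ∀ x, (∀ m, Commute x (f m)) → x ∈ f.range) (hcQ : c ∉ f.range) :
    (∀ y, c * f I * c⁻¹ = f y → Sim P y) ∧ (∀ y, c * f J * c⁻¹ = f y → Sim R y) ∧
    (∀ y, c * f P * c⁻¹ = f y → Sim I y) ∧ (∀ y, c * f R * c⁻¹ = f y → Sim J y) := by
  have hcu : c * f (I * P) * c⁻¹ = f (I * P) := by rw [hu.eq, mul_inv_cancel_right]
  have hcv : c * f (J * R) * c⁻¹ = f (J * R) := by rw [hv.eq, mul_inv_cancel_right]
  -- conjugation by `c` respects the relations
  have htr : ∀ a a' b b' : M, c * f a * c⁻¹ = f a' → c * f b * c⁻¹ = f b' →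
      (Eqv (a * b) (b * a) ↔ Eqv (a' * b') (b' * a')) := by
    intro a a' b b' ha hb
    rw [← hf, ← hf, map_mul, map_mul, map_mul, map_mul, ← ha, ← hb,
      show c * f a * c⁻¹ * (c * f b * c⁻¹) = c * (f a * f b) * c⁻¹ by group,
      show c * f b * c⁻¹ * (c * f a * c⁻¹) = c * (f b * f a) * c⁻¹ by group]
    exact ⟨fun h => by rw [h], fun h => mul_left_cancel (mul_right_cancel h)⟩
  obtain ⟨yI, hI⟩ := hn I
  obtain ⟨yJ, hJ⟩ := hn J
  have hI2 : f (yI * yI) = f (I * I) := by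
    rw [map_mul, map_mul, ← hI]
    rcases hn (I * I) with ⟨w, hw⟩
    have : c * f (I * I) * c⁻¹ = f (I * I) := by
      have hIi : Sim 1 (I * I) := by
        rcases hF.gen 1 with ⟨a, b, c', d, -⟩
        exact (show ∀ x : M, Sim 1 (x * x) by decide +kernel) I
      rcases (sim_iff hf 1 (I * I)).1 hIi with e | e <;> rw [e, map_one]
      · simp
      · rw [mul_one, hz.eq, mul_inv_cancel_right]
    rw [map_mul] at this
    rw [← this]; group
  have hJ2 : f (yJ * yJ) = f (J * J) := by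
    rw [map_mul, map_mul, ← hJ]
    have : c * f (J * J) * c⁻¹ = f (J * J) := by
      have hJi : Sim 1 (J * J) := (show ∀ x : M, Sim 1 (x * x) by decide +kernel) J
      rcases (sim_iff hf 1 (J * J)).1 hJi with e | e <;> rw [e, map_one]
      · simp
      · rw [mul_one, hz.eq, mul_inv_cancel_right]
    rw [map_mul] at this
    rw [← this]; group
  have h1 := hF.img₁ yI ((hf _ _).1 hI2) ((htr _ _ _ _ hI hcu).1 hF.cIu)
    (fun h => hF.nIv ((htr _ _ _ _ hI hcv).2 h))
  have h2 := hF.img₂ yJ ((hf _ _).1 hJ2) ((htr _ _ _ _ hJ hcv).1 hF.cJv)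
    (fun h => hF.nJu ((htr _ _ _ _ hJ hcu).2 h))
  have hP : c * f P * c⁻¹ = f (yI⁻¹ * (I * P)) := by
    rw [map_mul f yI⁻¹, map_inv, ← hI]
    rw [← hcu]
    rw [map_mul]; group
  have hR : c * f R * c⁻¹ = f (yJ⁻¹ * (J * R)) := by
    rw [map_mul f yJ⁻¹, map_inv, ← hJ]
    rw [← hcv]
    rw [map_mul]; group
  -- classes of pairs are compatible
  have hmix : ∀ a a' b b' : M, Eqv (a * b) (b * a) → Sim a a' → Sim b b' →
      Eqv (a' * b') (b' * a') := by
    intro a a' b b' hab ha hb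
    rw [← hf, map_mul, map_mul] at hab ⊢
    rcases (sim_iff hf a a').1 ha with e | e <;> rcases (sim_iff hf b b').1 hb with e' | e' <;>
      rw [e, e']
    · exact hab
    · exact ((zz_comm a).symm.mul_right hab).eq
    · exact ((zz_comm b).mul_left hab).eq
    · exact ((((Commute.refl _).mul_left (zz_comm a).symm)).mul_right ((zz_comm b).mul_left hab)).eq
  have hnc : ¬ Eqv (yI * yJ) (yJ * yI) := fun h => hF.nIJ ((htr _ _ _ _ hI hJ).2 h)
  -- not both classes are fixed
  have hsame : Sim I yI → Sim J yJ → False := by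
    intro a b
    have hP' := (hF.quot yI).1 a
    have hR' := (hF.quot yJ).2.2.1 b
    have hb : ∀ g y : M, Sim g y → ∃ s : Bool, f (if s then zz * g else g) = f y := by
      intro g y h
      rcases (sim_iff hf g y).1 h with e | e
      · exact ⟨false, e.symm⟩
      · exact ⟨true, by rw [e]; simp⟩
    obtain ⟨s₁, e₁⟩ := hb _ _ a
    obtain ⟨s₂, e₂⟩ := hb _ _ b
    obtain ⟨s₃, e₃⟩ := hb _ _ hP'
    obtain ⟨s₄, e₄⟩ := hb _ _ hR'
    obtain ⟨q, q₁, q₂, q₃, q₄⟩ := hF.inner s₁ s₂ s₃ s₄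
    have hcom : ∀ g y : M, c * f g * c⁻¹ = f y → f (q * g * q⁻¹) = f y →
        Commute ((f q)⁻¹ * c) (f g) := by
      intro g y h h'
      rw [map_mul, map_mul, map_inv, ← h] at h'
      show (f q)⁻¹ * c * f g = f g * ((f q)⁻¹ * c)
      calc (f q)⁻¹ * c * f g = (f q)⁻¹ * (c * f g * c⁻¹) * c := by group
        _ = (f q)⁻¹ * (f q * f g * (f q)⁻¹) * c := by rw [h']
        _ = _ := by group
    have hall : ∀ m, Commute ((f q)⁻¹ * c) (f m) := fun m => by
      obtain ⟨k₁, k₂, k₃, k₄, hk⟩ := hF.gen m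
      rw [(hf _ _).2 hk, map_mul, map_mul, map_mul, map_pow, map_pow, map_pow, map_pow]
      exact ((((hcom I yI hI (((hf _ _).2 q₁).trans e₁)).pow_right _).mul_right
        ((hcom J yJ hJ (((hf _ _).2 q₂).trans e₂)).pow_right _))).mul_right
        (((hcom P _ hP (((hf _ _).2 q₃).trans e₃)).pow_right _).mul_right
        ((hcom R _ hR (((hf _ _).2 q₄).trans e₄)).pow_right _))
    refine hcQ ?_
    rw [show c = f q * ((f q)⁻¹ * c) by group]
    exact mul_mem ⟨q, rfl⟩ (hC _ hall)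
  have ha : Sim P yI := h1.resolve_left fun a => h2.elim (hsame a)
    fun b => hnc (hmix _ _ _ _ hF.cIR a b)
  have hb : Sim R yJ := h2.resolve_left fun b => hnc (hmix _ _ _ _ hF.cPJ ha b)
  refine ⟨fun y hy => ?_, fun y hy => ?_, fun y hy => ?_, fun y hy => ?_⟩
  · rw [sim_iff hf] at ha ⊢
    rwa [← hy, hI]
  · rw [sim_iff hf] at hb ⊢
    rwa [← hy, hJ]
  · have := (hF.quot yI).2.1 ha
    rw [sim_iff hf] at this ⊢
    rwa [← hy, hP]
  · have := (hF.quot yJ).2.2.2 hb
    rw [sim_iff hf] at this ⊢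
    rwa [← hy, hR]

/-- The centralizer in a 2-group of `I P`, `J R` and the centre lies in the central product, or some
element outside it normalizes it and exchanges the classes. -/
theorem exists_normalizing [Finite S] (hS : IsPGroup 2 S) (hf : Faithful f) {u v : M}
    (hcl : ∀ q : M, Sim u (q * u * q⁻¹) ∧ Sim v (q * v * q⁻¹))
    (hout : ∃ c, Commute c (f u) ∧ Commute c (f v) ∧ Commute c (f zz) ∧ c ∉ f.range) :
    ∃ c, Commute c (f u) ∧ Commute c (f v) ∧ Commute c (f zz) ∧ c ∉ f.range ∧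
      ∀ x : M, ∃ y : M, c * f x * c⁻¹ = f y := by
  set K := Subgroup.centralizer ({f u, f v, f zz} : Set S) with hK
  have hKmem : ∀ x, x ∈ K ↔ Commute x (f u) ∧ Commute x (f v) ∧ Commute x (f zz) := by
    intro x
    simp only [hK, Subgroup.mem_centralizer_iff, Set.mem_insert_iff, Set.mem_singleton_iff,
      forall_eq_or_imp, forall_eq]
    exact ⟨fun h => ⟨h.1.symm, h.2.1.symm, h.2.2.symm⟩, fun h => ⟨h.1.symm, h.2.1.symm, h.2.2.symm⟩⟩
  obtain ⟨c₀, a₁, a₂, a₃, a₄⟩ := hout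
  have hc₀ : c₀ ∈ K := (hKmem _).2 ⟨a₁, a₂, a₃⟩
  -- the central product normalizes `K`
  have hnorm : f.range ≤ Subgroup.normalizer (K : Set S) := by
    have hstep : ∀ q : M, ∀ x ∈ K, f q * x * (f q)⁻¹ ∈ K := by
      intro q x hx
      obtain ⟨x₁, x₂, x₃⟩ := (hKmem x).1 hx
      have : ∀ w : M, (∀ p : M, Sim w (p * w * p⁻¹)) → Commute x (f w) →
          Commute (f q * x * (f q)⁻¹) (f w) := by
        intro w hw hxw
        have hx' : Commute x ((f q)⁻¹ * f w * f q) := by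
          have := hw q⁻¹
          rw [sim_iff hf, inv_inv, map_mul, map_mul, map_inv] at this
          rcases this with e | e <;> rw [e]
          · exact hxw
          · exact x₃.mul_right hxw
        have h4 := (Commute.conj_iff (f q)).2 hx'
        rwa [show f q * ((f q)⁻¹ * f w * f q) * (f q)⁻¹ = f w by group] at h4
      refine (hKmem _).2 ⟨this u (fun p => (hcl p).1) x₁, this v (fun p => (hcl p).2) x₂, ?_⟩
      exact ((zz_comm q).symm.mul_left x₃).mul_left (zz_comm q).symm.inv_left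
    rintro _ ⟨q, rfl⟩
    rw [Subgroup.mem_normalizer_iff]
    refine fun x => ⟨hstep q x, fun h => ?_⟩
    have := hstep q⁻¹ _ h
    rwa [map_inv, inv_inv, show (f q)⁻¹ * (f q * x * (f q)⁻¹) * f q = x by group] at this
  haveI : Fact (Nat.Prime 2) := ⟨Nat.prime_two⟩
  set W := f.range ⊔ K with hW
  haveI : Group.IsNilpotent W := (hS.to_subgroup W).isNilpotent
  have hlt : f.range.subgroupOf W < ⊤ := by
    rw [lt_top_iff_ne_top, Ne, Subgroup.subgroupOf_eq_top]
    exact fun h => a₄ (h (Subgroup.mem_sup_right hc₀))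
  obtain ⟨y, hyn, hyQ⟩ := SetLike.exists_of_lt
    (Group.normalizerCondition_of_isNilpotent (f.range.subgroupOf W) hlt)
  obtain ⟨k, hk, q', hq', hkq⟩ : ∃ k ∈ K, ∃ q' ∈ f.range, k * q' = (y : S) := by
    have hy : (y : S) ∈ K ⊔ f.range := by rw [sup_comm]; exact y.2
    rw [← SetLike.mem_coe, Subgroup.coe_mul_of_right_le_normalizer_left _ _ hnorm] at hy
    exact hy
  obtain ⟨q₀, rfl⟩ := hq'
  obtain ⟨k₁, k₂, k₃⟩ := (hKmem k).1 hk
  refine ⟨k, k₁, k₂, k₃, fun h => hyQ ?_, fun x => ?_⟩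
  · rw [Subgroup.mem_subgroupOf, ← hkq]
    exact mul_mem h ⟨q₀, rfl⟩
  · have hz' : (⟨f (q₀⁻¹ * x * q₀), Subgroup.mem_sup_left ⟨_, rfl⟩⟩ : W) ∈ f.range.subgroupOf W :=
      ⟨_, rfl⟩
    obtain ⟨w, hw⟩ := ((Subgroup.mem_normalizer_iff.1 hyn) _).1 hz'
    refine ⟨w, ?_⟩
    simp only [Subgroup.coe_subtype, Subgroup.coe_mul, Subgroup.coe_inv, ← hkq, map_mul,
      map_inv] at hw
    rw [hw]; group

/-- One of two candidate elementary abelian subgroups of order eight is self-centralizing. -/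
theorem exists_self_centralizing [Finite S] (hS : IsPGroup 2 S) (hf : Faithful f)
    (hC : ∀ x, (∀ m, Commute x (f m)) → x ∈ f.range) :
    ∃ A : Subgroup S, Nat.card A = 8 ∧ (∀ a ∈ A, a * a = 1) ∧
      ∀ x, (∀ a ∈ A, Commute x a) → x ∈ A := by
  classical
  have mk : ∀ u v : M, (reps u v).card = 8 →
      (∀ x ∈ reps u v, ∀ y ∈ reps u v, Eqv x y → x = y) → (∀ x ∈ reps u v, Eqv (x * x) 1) →
      (∀ x : M, Eqv (x * u) (u * x) → Eqv (x * v) (v * x) → ∃ y ∈ reps u v, Eqv x y) →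
      (∀ x ∈ reps u v, Eqv (x * u) (u * x) ∧ Eqv (x * v) (v * x)) →
      (∀ c, Commute c (f u) → Commute c (f v) → Commute c (f zz) → c ∈ f.range) →
      ∃ A : Subgroup S, Nat.card A = 8 ∧ (∀ a ∈ A, a * a = 1) ∧
        ∀ x, (∀ a ∈ A, Commute x a) → x ∈ A := by
    intro u v h8 hinj hsq hcov hcom hin
    let A : Subgroup S := f.range ⊓ Subgroup.centralizer ({f u, f v} : Set S)
    have hA : ∀ x, x ∈ A ↔ x ∈ f.range ∧ Commute x (f u) ∧ Commute x (f v) := by
      intro x
      simp only [A, Subgroup.mem_inf, Subgroup.mem_centralizer_iff, Set.mem_insert_iff,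
        Set.mem_singleton_iff, forall_eq_or_imp, forall_eq]
      exact ⟨fun h => ⟨h.1, h.2.1.symm, h.2.2.symm⟩, fun h => ⟨h.1, h.2.1.symm, h.2.2.symm⟩⟩
    have hset : (A : Set S) = f '' (reps u v : Set M) := by
      ext x
      constructor
      · intro hx
        obtain ⟨⟨m, rfl⟩, hu, hv⟩ := (hA x).1 hx
        obtain ⟨y, hy, hxy⟩ := hcov m ((hf _ _).1 (by rw [map_mul, map_mul]; exact hu.eq))
          ((hf _ _).1 (by rw [map_mul, map_mul]; exact hv.eq))
        exact ⟨y, hy, ((hf _ _).2 hxy).symm⟩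
      · rintro ⟨y, hy, rfl⟩
        obtain ⟨h1, h2⟩ := hcom y hy
        refine (hA _).2 ⟨⟨y, rfl⟩, ?_, ?_⟩
        · show f y * f u = f u * f y
          rw [← map_mul, ← map_mul]; exact (hf _ _).2 h1
        · show f y * f v = f v * f y
          rw [← map_mul, ← map_mul]; exact (hf _ _).2 h2
    have hcard : Nat.card A = 8 := by
      have e : Nat.card A = (f '' (reps u v : Set M)).ncard :=
        (Nat.card_coe_set_eq (A : Set S)).trans (by rw [hset])
      rw [e, Set.InjOn.ncard_image fun x hx y hy h => hinj x hx y hy ((hf _ _).1 h),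
        Set.ncard_coe_finset, h8]
    refine ⟨A, hcard, fun a ha => ?_, fun x hx => ?_⟩
    · obtain ⟨y, hy, rfl⟩ : a ∈ f '' (reps u v : Set M) := hset ▸ ha
      rw [← map_mul, ← map_one f]
      exact (hf _ _).2 (hsq y hy)
    · have hm : ∀ w ∈ reps u v, Commute x (f w) := fun w hw =>
        hx _ (by rw [← SetLike.mem_coe, hset]; exact ⟨w, hw, rfl⟩)
      have h1 := hm u (by simp [reps])
      have h2 := hm v (by simp [reps])
      exact (hA x).2 ⟨hin x h1 h2 (hm zz (by simp [reps])), h1, h2⟩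
  by_cases g1 : ∀ c, Commute c (f (gI * gP)) → Commute c (f (gJ * gR)) → Commute c (f zz) →
      c ∈ f.range
  · exact mk _ _ reps_one.1 reps_one.2.1 reps_one.2.2.1 reps_one.2.2.2.1 reps_one.2.2.2.2 g1
  by_cases g2 : ∀ c, Commute c (f (gJ * gP)) → Commute c (f (gK * gR)) → Commute c (f zz) →
      c ∈ f.range
  · exact mk _ _ reps_two.1 reps_two.2.1 reps_two.2.2.1 reps_two.2.2.2.1 reps_two.2.2.2.2 g2
  exfalso
  push Not at g1 g2
  obtain ⟨c₁, u₁, v₁, z₁, q₁, n₁⟩ := exists_normalizing hS hf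
    (fun q => ⟨conj_sim _ q, conj_sim _ q⟩) g1
  obtain ⟨c₂, u₂, v₂, z₂, q₂, n₂⟩ := exists_normalizing hS hf
    (fun q => ⟨conj_sim _ q, conj_sim _ q⟩) g2
  obtain ⟨sI, sJ, -, -⟩ := swap_classes hf frame_one n₁ z₁ u₁ v₁ hC q₁
  obtain ⟨-, -, tP, tR⟩ := swap_classes hf frame_two n₂ z₂ u₂ v₂ hC q₂
  set x := c₂ * c₁ with hxdef
  have hxz : Commute x (f zz) := z₂.mul_left z₁
  have hnx : ∀ m : M, ∃ w, x * f m * x⁻¹ = f w := fun m => by
    obtain ⟨w, hw⟩ := n₁ m
    obtain ⟨w', hw'⟩ := n₂ w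
    exact ⟨w', by rw [← hw', ← hw, hxdef]; group⟩
  have step : ∀ g p t : M, (∀ y, c₁ * f g * c₁⁻¹ = f y → Sim p y) →
      (∀ y, c₂ * f p * c₂⁻¹ = f y → Sim t y) → ∀ y, x * f g * x⁻¹ = f y → Sim t y := by
    intro g p t h1 h2 y hy
    obtain ⟨w, hw⟩ := n₁ g
    obtain ⟨p', hp'⟩ := n₂ p
    have hws : Sim p w := h1 w hw
    refine sim_conj hf z₂ hp' hws ?_ (?_ : c₂ * f w * c₂⁻¹ = f y)
    · have := h2 p' hp'
      rw [sim_iff hf] at this ⊢
      rcases this with e | e
      · exact Or.inl e.symm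
      · refine Or.inr ?_
        rw [e, ← mul_assoc, ← map_mul, (central_zz 1).2.2.1, map_one, one_mul]
    · rw [← hy, ← hw, hxdef]; group
  have xI := step gI gP gJ sI tP
  have xJ := step gJ gR gK sJ tR
  obtain ⟨wI, hwI⟩ := hnx gI
  obtain ⟨wJ, hwJ⟩ := hnx gJ
  have hK : x * f gK * x⁻¹ = f (wI * wJ) := by
    rw [gK, map_mul, map_mul, ← hwI, ← hwJ]; group
  have xK : ∀ y, x * f gK * x⁻¹ = f y → Sim gI y := by
    intro y hy
    have h := (show ∀ a b : M, Sim gJ a → Sim gK b → Sim gI (a * b) by decide +kernel)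
      wI wJ (xI _ hwI) (xJ _ hwJ)
    rw [sim_iff hf] at h ⊢
    rwa [← hy, hK]
  have hit : ∀ m : ℕ, ∀ y, x ^ m * f gI * (x ^ m)⁻¹ = f y →
      Sim (if m % 3 = 0 then gI else if m % 3 = 1 then gJ else gK) y := by
    intro m
    induction m with
    | zero =>
      intro y hy
      simp only [pow_zero, one_mul, inv_one, mul_one] at hy
      exact (sim_iff hf _ _).2 (Or.inl hy.symm)
    | succ m ih =>
      intro y hy
      have hex : ∀ k : ℕ, ∃ w, x ^ k * f gI * (x ^ k)⁻¹ = f w := by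
        intro k
        induction k with
        | zero => exact ⟨gI, by simp⟩
        | succ k ik =>
          obtain ⟨w, hw⟩ := ik
          obtain ⟨w', hw'⟩ := hnx w
          exact ⟨w', by rw [← hw', ← hw, pow_succ']; group⟩
      obtain ⟨w, hw⟩ := hex m
      have hwy : x * f w * x⁻¹ = f y := by rw [← hy, ← hw, pow_succ']; group
      have hs := ih w hw
      have key : ∀ g t : M, Sim g w → (∀ y, x * f g * x⁻¹ = f y → Sim t y) → Sim t y := by
        intro g t hg ht
        obtain ⟨g', hg'⟩ := hnx g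
        refine sim_conj hf hxz hg' hg ?_ hwy
        have := ht g' hg'
        rw [sim_iff hf] at this ⊢
        rcases this with e | e
        · exact Or.inl e.symm
        · refine Or.inr ?_
          rw [e, ← mul_assoc, ← map_mul, (central_zz 1).2.2.1, map_one, one_mul]
      have : m % 3 = 0 ∨ m % 3 = 1 ∨ m % 3 = 2 := by omega
      rcases this with h | h | h
      · rw [show (m + 1) % 3 = 1 by omega]; rw [h] at hs; exact key _ _ hs xI
      · rw [show (m + 1) % 3 = 2 by omega]; rw [h] at hs; exact key _ _ hs xJ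
      · rw [show (m + 1) % 3 = 0 by omega]; rw [h] at hs; exact key _ _ hs xK
  obtain ⟨n, hn⟩ := hS x
  have h := hit (2 ^ n) gI (by rw [hn, one_mul, inv_one, mul_one])
  have h3 : 2 ^ n % 3 ≠ 0 := by
    intro h'
    have := Nat.prime_three.dvd_of_dvd_pow (Nat.dvd_of_mod_eq_zero h')
    norm_num at this
  rw [if_neg h3] at h
  have hsym : ∀ a : M, Sim a gI → Sim gI a := fun a ha => by
    rw [sim_iff hf] at ha ⊢
    rcases ha with e | e
    · exact Or.inl e.symm
    · refine Or.inr ?_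
      rw [e, ← mul_assoc, ← map_mul, (central_zz 1).2.2.1, map_one, one_mul]
  split at h
  · exact cycle_classes.1 (hsym _ h)
  · exact cycle_classes.2 (hsym _ h)

end CfsgLib.TwoFusion.QuatProd
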